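import Cfsg.Agent.H590.F4.P4
import Cfsg.Agent.H231.QF.HOne

/-!
# S2491, row F4: the commutators of the preimage of `V₄` generate the kernel (P4b)

Central extensions `π : L → K`, `K = ²E₆(2)`. For a short root `e` let `E e = ⁅V2_e~, P_e~⁆ ⊔ ⁅V_e~, V_e~⁆`. If `E e ⊓ ker π = ⊥` for
the highest short root then the root groups have lifts `Y b` with exact commutator relations, and the kernel has odd exponent.
-/

set_option autoImplicit false
set_option linter.unusedSectionVars false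

namespace Cfsg.Agent.H184.QF

open CoxeterSystem Cfsg.Agent.ChevalleyStructure.CoxeterGeom Cfsg.Agent.Tits.Roots Cfsg.Agent.Tits.Core
  Cfsg.Agent.Nodes Cfsg.Agent.Nodes.Reps Cfsg.Agent.Nodes.BNOf Cfsg.Agent.Nodes.RGDLib Cfsg.Agent.Nodes.Bruhat
  Cfsg.Agent.Nodes.OppDec Cfsg.Agent.Nodes.LeviDec Cfsg.Agent.Nodes.StabComb Cfsg.Agent.KFacts.RgdSL
  Cfsg.Agent.Nodes.RGDTwE6 Cfsg.Agent.KFacts.TwESix.Comb Cfsg.Agent.KFacts.TwESix.Btw
open Cfsg.Lie Subgroup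
open Cfsg.Agent.H51.Mult (PCE)
open Cfsg.Agent.H326.QS.VP (Q conj_Q)
open Cfsg.Agent.H231.QF
open Cfsg.Agent.H231.QF.HOne (bti BX mem_BX le_comm_T st_iff)
open Cfsg.Agent.H590.F4 (DF BF V2)
open scoped commutatorElement

universe u v

/-! ### Tables -/

/-- the highest short root -/
def eS : Fin 4 → ℤ := ![1, 2, 3, 2]

theorem tab_eS : eS ∈ rts ∧ bf eS eS = 2 := by decide +kernel

theorem bf_eS : ∀ x ∈ rts, bf x eS = x 3 := by decide +kernel

theorem tab_le : ∀ c ∈ rts, ∀ e ∈ rts, bf e e = 2 → bf c e ≤ 2 := by decide +kernel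

theorem tab_eq : ∀ c ∈ rts, bf c c = 2 → ∀ e ∈ rts, bf e e = 2 → bf c e = 2 → c = e := by decide +kernel

/-- long decomposition -/
theorem tab_dec : ∀ b ∈ rts, bf b b = 4 → ∃ a ∈ rts, bf a a = 4 ∧ b - a ∈ rts ∧ bf (b - a) (b - a) = 4 ∧ bf a (b - a) = -2 ∧
    ∀ e ∈ rts, bf e e = 2 → bf b e = 2 → (bf a e = 2 ∧ 0 ≤ bf (b - a) e) ∨ (0 ≤ bf a e ∧ bf (b - a) e = 2) := by
  decide +kernel

theorem tab_two : ∀ b ∈ rts, ∃ e ∈ rts, bf e e = 2 ∧ bf b e = 2 := by decide +kernel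

theorem tab_pair : ∀ a ∈ rts, (∀ k, 0 ≤ a k) → ∀ b ∈ rts, (∀ k, 0 ≤ b k) → a ≠ b →
    ∃ e ∈ rts, bf e e = 2 ∧ ((bf a e = 2 ∧ 0 ≤ bf b e) ∨ (0 ≤ bf a e ∧ bf b e = 2) ∨ (0 < bf a e ∧ 0 < bf b e)) := by
  decide +kernel

/-! ### The subgroups -/

/-- the second layer of the short root `e` -/
noncomputable def V2r {F : Type u} [Field F] (φ : F →+* F) (e : Fin 4 → ℤ) : Subgroup (KK F) :=
  RGD.Sup (X φ) (Q fun c => bf c e = 2)

/-- the radical of the parabolic subgroup of the root `e` -/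
noncomputable def Vr {F : Type u} [Field F] (φ : F →+* F) (e : Fin 4 → ℤ) : Subgroup (KK F) :=
  RGD.Sup (X φ) (Q fun c => 0 < bf c e)

/-- the parabolic subgroup of the root `e` -/
noncomputable def Pr {F : Type u} [Field F] (φ : F →+* F) (e : Fin 4 → ℤ) : Subgroup (KK F) :=
  RGDTwE6.T F 2 ⊔ RGD.Sup (X φ) (Q fun c => 0 ≤ bf c e)

section Par

variable {F : Type u} [Field F] {φ : F →+* F}

theorem X_le_V2r {c e : Fin 4 → ℤ} (hc : c ∈ rts) (h : bf c e = 2) : X φ c ≤ V2r φ e :=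
  RGD.le_Sup (S := Q fun c => bf c e = 2) ⟨hc, h⟩

theorem X_le_Vr {c e : Fin 4 → ℤ} (hc : c ∈ rts) (h : 0 < bf c e) : X φ c ≤ Vr φ e :=
  RGD.le_Sup (S := Q fun c => 0 < bf c e) ⟨hc, h⟩

theorem X_le_Pr {c e : Fin 4 → ℤ} (hc : c ∈ rts) (h : 0 ≤ bf c e) : X φ c ≤ Pr φ e :=
  le_trans (RGD.le_Sup (S := Q fun c => 0 ≤ bf c e) ⟨hc, h⟩) le_sup_right

theorem T_le_Pr {e : Fin 4 → ℤ} : RGDTwE6.T F 2 ≤ Pr φ e := le_sup_left

theorem V2r_eS_le : V2r φ eS ≤ V2 φ := by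
  refine RGD.Sup_le fun z hz => RGD.le_Sup (S := Q fun x => x 3 = 2) ⟨hz.1, ?_⟩
  show z 3 = 2
  rw [← bf_eS z hz.1]
  exact hz.2

theorem Vr_eS_le : Vr φ eS ≤ V φ j4 := by
  refine RGD.Sup_le fun z hz => RGD.le_Sup ⟨(mem_rts cs).2 hz.1, ?_, 3, by simp [j4], ?_⟩
  · have h1 : ∀ x ∈ rts, 0 < bf x eS → ∀ k, 0 ≤ x k := by decide +kernel
    exact fun k => h1 z hz.1 hz.2 k
  · have h1 : 0 < bf z eS := hz.2
    rw [bf_eS z hz.1] at h1
    omega

theorem Pr_eS_le : Pr φ eS ≤ P φ j4 := by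
  refine sup_le ?_ (RGD.Sup_le fun z hz => ?_)
  · exact le_trans (le_sup_left : RGDTwE6.T F 2 ≤ Lv φ j4) le_sup_left
  · have hz2 : 0 ≤ bf z eS := hz.2
    rcases eq_or_lt_of_le hz2 with h | h
    · refine le_trans ?_ (le_sup_left : Lv φ j4 ≤ P φ j4)
      refine le_trans ?_ (le_sup_right : RGD.Sup (X φ) (RootsJ cs isCartan j4) ≤ Lv φ j4)
      refine RGD.le_Sup ⟨(mem_rts cs).2 hz.1, fun k hk => ?_⟩
      have hk0 : k = 3 := by
        by_contra h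
        exact hk h
      rw [bf_eS z hz.1] at h
      rw [hk0]
      exact h.symm
    · refine le_trans ?_ (le_sup_right : V φ j4 ≤ P φ j4)
      exact le_trans (X_le_Vr hz.1 h) Vr_eS_le

end Par

section L

variable {F : Type u} [Field F] [Fintype F] {φ : F →+* F} (hφ : ∀ t, φ t = t ^ 2) (hqq : ∀ t : F, (t ^ 2) ^ 2 = t)
  {L : Type v} [Group L] {π : L →* KK F}

/-- `⁅V2_e~, P_e~⁆ ⊔ ⁅V_e~, V_e~⁆` -/
noncomputable def E (φ : F →+* F) (π : L →* KK F) (e : Fin 4 → ℤ) : Subgroup L :=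
  ⁅(V2r φ e).comap π, (Pr φ e).comap π⁆ ⊔ ⁅(Vr φ e).comap π, (Vr φ e).comap π⁆

omit [Fintype F] in
theorem mem_E {e : Fin 4 → ℤ} {x y : L} (hx : π x ∈ V2r φ e) (hy : π y ∈ Pr φ e) : ⁅x, y⁆ ∈ E φ π e :=
  mem_sup_left (commutator_mem_commutator hx hy)

omit [Fintype F] in
theorem mem_E' {e : Fin 4 → ℤ} {x y : L} (hx : π x ∈ Pr φ e) (hy : π y ∈ V2r φ e) : ⁅x, y⁆ ∈ E φ π e := by
  rw [← commutatorElement_inv]
  exact inv_mem (mem_E hy hx)

omit [Fintype F] in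
theorem mem_EV {e : Fin 4 → ℤ} {x y : L} (hx : π x ∈ Vr φ e) (hy : π y ∈ Vr φ e) : ⁅x, y⁆ ∈ E φ π e :=
  mem_sup_right (commutator_mem_commutator hx hy)

include hφ hqq in
/-- conjugation -/
theorem E_conj [CharP F 2] (hs : Function.Surjective π) (hc : π.ker ≤ center L) (h0 : E φ π eS ⊓ π.ker = ⊥)
    {e : Fin 4 → ℤ} (he : e ∈ rts) (hl : bf e e = 2) : E φ π e ⊓ π.ker = ⊥ := by
  have : Fact (Nat.Prime 2) := ⟨Nat.prime_two⟩
  set R := rgd cs hφ hqq 2 with hR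
  obtain ⟨w₁, h1⟩ := exists_rep_short cs ((mem_rts cs).2 he) hl
  obtain ⟨w₂, h2⟩ := exists_rep_short cs ((mem_rts cs).2 tab_eS.1) tab_eS.2
  set w := w₂ * w₁⁻¹ with hw
  have hwr : rep cs isCartan w e = eS := by
    rw [hw, rep_mul_apply, ← h1, rep_inv_apply, h2]
  obtain ⟨g, hg⟩ := exists_rp cs R.nsys w
  obtain ⟨gh, hgh⟩ := hs g
  have hV2 : ∀ x ∈ V2r φ e, g * x * g⁻¹ ∈ V2r φ eS := by
    intro x hx
    refine conj_Q R hg (P' := fun c => bf c eS = 2) (fun c hc h => ?_) hx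
    rw [← hwr, bf_rep]
    exact h
  have hV : ∀ x ∈ Vr φ e, g * x * g⁻¹ ∈ Vr φ eS := by
    intro x hx
    refine conj_Q R hg (P' := fun c => 0 < bf c eS) (fun c hc h => ?_) hx
    rw [← hwr, bf_rep]
    exact h
  have hP : ∀ x ∈ Pr φ e, g * x * g⁻¹ ∈ Pr φ eS := by
    have h3 : Pr φ e ≤ (Pr φ eS).comap (MulAut.conj g).toMonoidHom := by
      refine sup_le ?_ (fun x hx => ?_)
      · intro t ht
        refine T_le_Pr ?_
        exact (mem_normalizer_iff.1 hg.mem_normalizer t).1 ht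
      · refine (le_sup_right : RGD.Sup (X φ) (Q fun c => 0 ≤ bf c eS) ≤ Pr φ eS) ?_
        refine conj_Q R hg (P' := fun c => 0 ≤ bf c eS) (fun c hc h => ?_) hx
        rw [← hwr, bf_rep]
        exact h
    exact fun x hx => h3 hx
  have hD : ∀ x : L, x ∈ E φ π e → gh * x * gh⁻¹ ∈ E φ π eS := by
    have h3 : E φ π e ≤ (E φ π eS).comap (MulAut.conj gh).toMonoidHom := by
      have e' : ∀ x y : L, gh * ⁅x, y⁆ * gh⁻¹ = ⁅gh * x * gh⁻¹, gh * y * gh⁻¹⁆ := by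
        intro x y
        rw [commutatorElement_def, commutatorElement_def]; group
      refine sup_le ?_ ?_
      · rw [commutator_le]
        intro x hx y hy
        show gh * ⁅x, y⁆ * gh⁻¹ ∈ E φ π eS
        rw [e']
        refine mem_E ?_ ?_
        · rw [map_mul, map_mul, map_inv, hgh]
          exact hV2 _ hx
        · rw [map_mul, map_mul, map_inv, hgh]
          exact hP _ hy
      · rw [commutator_le]
        intro x hx y hy
        show gh * ⁅x, y⁆ * gh⁻¹ ∈ E φ π eS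
        rw [e']
        refine mem_EV ?_ ?_
        · rw [map_mul, map_mul, map_inv, hgh]
          exact hV _ hx
        · rw [map_mul, map_mul, map_inv, hgh]
          exact hV _ hy
    exact fun x hx => h3 hx
  rw [eq_bot_iff]
  rintro x ⟨hx, hx1⟩
  have h4 := hD x hx
  have h5 : gh * x * gh⁻¹ = x := by
    rw [mem_center_iff.1 (hc hx1) gh, mul_inv_cancel_right]
  rw [h5] at h4
  rw [← h0]
  exact ⟨h4, hx1⟩

/-- the lift of the root group `X b` -/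
noncomputable def Y (φ : F →+* F) (π : L →* KK F) (b : Fin 4 → ℤ) : Subgroup L :=
  (X φ b).comap π ⊓ ⨅ e : {e : Fin 4 → ℤ // e ∈ rts ∧ bf e e = 2 ∧ bf b e = 2}, E φ π e.1

section Main

variable [CharP F 2] (hF : Fintype.card F = 4) (hs : Function.Surjective π)

omit [Fintype F] [CharP F 2] in
theorem Y_le {b e : Fin 4 → ℤ} (he : e ∈ rts) (hl : bf e e = 2) (h : bf b e = 2) : Y φ π b ≤ E φ π e :=
  inf_le_right.trans (iInf_le (fun e : {e : Fin 4 → ℤ // e ∈ rts ∧ bf e e = 2 ∧ bf b e = 2} => E φ π e.1) ⟨e, he, hl, h⟩)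

include hφ hqq hs hF in
theorem Y_map {b : Fin 4 → ℤ} (hb : b ∈ rts) : (Y φ π b).map π = X φ b := by
  have : Fact (Nat.Prime 2) := ⟨Nat.prime_two⟩
  have : Finite CoxeterMatrix.F₄.Group := finiteW cs
  apply le_antisymm
  · rintro _ ⟨y, ⟨hy, -⟩, rfl⟩
    exact hy
  · rcases norm_rts b hb with hl | hl
    · set R := rgd cs hφ hqq 2 with hR
      intro w hw
      obtain ⟨a, ha, hal, ha', hal', h1, h2⟩ := tab_dec b hb hl
      have hA := a2 cs ((mem_rts cs).2 ha) ((mem_rts cs).2 ha') (by rw [hal, hal']) (by rw [h1, hal]; norm_num)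
      obtain ⟨u, hu, hu1⟩ := Cfsg.Agent.KFacts.TwESix.Facts.exists_ne_one R ((mem_rts cs).2 ha)
      have hw' : w ∈ X φ (a + (b - a)) := by
        rw [add_sub_cancel]
        exact hw
      obtain ⟨v, hv, e⟩ := A2.comm_surj R hA hu hu1 hw'
      obtain ⟨uh, rfl⟩ := hs u
      obtain ⟨vh, rfl⟩ := hs v
      refine ⟨⁅uh, vh⁆, Subgroup.mem_inf.2 ⟨?_, Subgroup.mem_iInf.2 fun e' => ?_⟩, by rw [map_commutatorElement, e]⟩
      · rw [mem_comap, map_commutatorElement, e]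
        exact hw
      · rcases h2 e'.1 e'.2.1 e'.2.2.1 e'.2.2.2 with ⟨h3, h4⟩ | ⟨h3, h4⟩
        · exact mem_E (X_le_V2r ha h3 hu) (X_le_Pr ha' h4 hv)
        · exact mem_E' (X_le_Pr ha h3 hu) (X_le_V2r ha' h4 hv)
    · have h1 : X φ b ≤ ⁅X φ b, RGDTwE6.T F 2⁆ := le_comm_T hφ hqq hF ((mem_rts cs).2 hb) ((st_iff hb).2 hl)
      have h2 : ⁅X φ b, RGDTwE6.T F 2⁆ = (⁅(X φ b).comap π, (RGDTwE6.T F 2).comap π⁆).map π := by
        rw [map_commutator, map_comap_eq_self_of_surjective hs, map_comap_eq_self_of_surjective hs]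
      intro w hw
      have h3 := h1 hw
      rw [h2] at h3
      obtain ⟨d, hd, rfl⟩ := h3
      refine ⟨d, Subgroup.mem_inf.2 ⟨hw, Subgroup.mem_iInf.2 fun e' => ?_⟩, rfl⟩
      have h4 : b = e'.1 := tab_eq b hb hl e'.1 e'.2.1 e'.2.2.1 e'.2.2.2
      rw [← h4]
      refine (?_ : _ ≤ E φ π b) hd
      refine le_trans ?_ le_sup_left
      exact commutator_mono (comap_mono (X_le_V2r hb hl)) (comap_mono T_le_Pr)

variable (hD : ∀ e ∈ rts, bf e e = 2 → E φ π e ⊓ π.ker = ⊥)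

include hD in
omit [Fintype F] [CharP F 2] in
theorem Y_ker {b : Fin 4 → ℤ} (hb : b ∈ rts) : Y φ π b ⊓ π.ker = ⊥ := by
  obtain ⟨e, he, hl, h⟩ := tab_two b hb
  rw [eq_bot_iff, ← hD e he hl]
  exact inf_le_inf_right _ (Y_le he hl h)

include hφ hqq hs hD hF in
theorem Y_comm {a b : Fin 4 → ℤ} (ha : a ∈ rts) (ha0 : 0 ≤ a) (hb : b ∈ rts) (hb0 : 0 ≤ b) (hab : a ≠ b) :
    ⁅Y φ π a, Y φ π b⁆ ≤ ⨆ c : {c : Fin 4 → ℤ // bti a b c}, Y φ π c.1 := by
  obtain ⟨e, he, hl, h⟩ := tab_pair a ha (fun k => ha0 k) b hb (fun k => hb0 k) hab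
  rw [commutator_le]
  intro x hx y hy
  have hx' : π x ∈ X φ a := hx.1
  have hy' : π y ∈ X φ b := hy.1
  have hne : a ≠ -b := by
    intro h1
    have h2 : b = 0 := by
      apply le_antisymm _ hb0
      rw [h1] at ha0
      exact neg_nonneg.1 ha0
    exact ((mem_rts cs).2 hb).ne_zero h2
  have h1 := mem_BX hφ hqq ((mem_rts cs).2 ha) ((mem_rts cs).2 hb) hne hx' hy'
  have h2 : BX φ a b = (⨆ c : {c : Fin 4 → ℤ // bti a b c}, Y φ π c.1).map π := by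
    rw [Subgroup.map_iSup]
    unfold BX
    exact iSup_congr fun c => (Y_map hφ hqq hF hs ((mem_rts cs).1 c.2.1)).symm
  rw [h2] at h1
  obtain ⟨m, hm, e1⟩ := h1
  have hmD : m ∈ E φ π e := by
    refine (iSup_le fun c => ?_ : (⨆ c : {c : Fin 4 → ℤ // bti a b c}, Y φ π c.1) ≤ E φ π e) hm
    obtain ⟨h3, i, j, hi, hj, ec⟩ := c.2
    refine Y_le he hl (le_antisymm (tab_le _ ((mem_rts cs).1 h3) e he hl) ?_)
    have h4 : bf c.1 e = i * bf a e + j * bf b e := by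
      rw [ec, ← natCast_zsmul, ← natCast_zsmul, bf_add_left, bf_smul_left, bf_smul_left]
    rw [h4]
    have hi' : (1 : ℤ) ≤ i := by exact_mod_cast hi
    have hj' : (1 : ℤ) ≤ j := by exact_mod_cast hj
    rcases h with ⟨h5, h6⟩ | ⟨h6, h5⟩ | ⟨h5, h6⟩ <;> nlinarith
  have hxD : ⁅x, y⁆ ∈ E φ π e := by
    rcases h with ⟨h5, h6⟩ | ⟨h5, h6⟩ | ⟨h5, h6⟩
    · exact mem_E (X_le_V2r ha h5 hx') (X_le_Pr hb h6 hy')
    · exact mem_E' (X_le_Pr ha h5 hx') (X_le_V2r hb h6 hy')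
    · exact mem_EV (X_le_Vr ha h5 hx') (X_le_Vr hb h6 hy')
  have h3 : ⁅x, y⁆ * m⁻¹ ∈ E φ π e ⊓ π.ker := Subgroup.mem_inf.2 ⟨mul_mem hxD (inv_mem hmD), by
    rw [MonoidHom.mem_ker, map_mul, map_inv, e1, map_commutatorElement, mul_inv_cancel]⟩
  rw [hD e he hl, mem_bot, mul_inv_eq_one] at h3
  rw [h3]
  exact hm

end Main

include hφ hqq in
/-- **The core**. -/
theorem core [Finite L] [CharP F 2] (hF : Fintype.card F = 4) (hs : Function.Surjective π) (hc : π.ker ≤ center L)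
    (hL : commutator L = ⊤) (h1 : E φ π eS ⊓ π.ker = ⊥) {a : L} (ha : π a = 1) :
    ∃ n : ℕ, ¬ 2 ∣ n ∧ a ^ n = 1 := by
  have : Fact (Nat.Prime 2) := ⟨Nat.prime_two⟩
  have : Finite CoxeterMatrix.F₄.Group := finiteW cs
  have : Finite (KK F) := inferInstance
  set R := rgd cs hφ hqq 2 with hR
  have hD : ∀ e ∈ rts, bf e e = 2 → E φ π e ⊓ π.ker = ⊥ := fun e he hl => E_conj hφ hqq hs hc h1 he hl
  have h2 := Cfsg.Agent.H164.F4.Coll.coll hF hφ (Y φ π)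
    (fun b hb _ => ⟨Y_map hφ hqq hF hs ((mem_rts cs).1 hb), Y_ker hD ((mem_rts cs).1 hb)⟩)
    (fun a b ha ha0 hb hb0 hab => Y_comm hφ hqq hF hs hD ((mem_rts cs).1 ha) ha0 ((mem_rts cs).1 hb) hb0 hab)
  set Z : Subgroup L := ⨆ b : {b : Fin 4 → ℤ // IsRoot cs isCartan b ∧ 0 ≤ b}, Y φ π b.1 with hZ
  have h3 : Z.map π = RGD.Sup (X φ) (RGD.Pos cs isCartan) := by
    rw [hZ, Subgroup.map_iSup]
    exact iSup_congr fun b => Y_map hφ hqq hF hs ((mem_rts cs).1 b.2.1)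
  have hG : GG cs isCartan (RGDTwE6.T F 2) (X φ) = ⊤ := by
    rw [eq_top_iff, ← G1_eq_top cs hφ hqq]
    exact le_sup_right
  obtain ⟨S, hS⟩ := Cfsg.Agent.KFacts.RgdAutFacts.exists_sylow R hG
  have h4 := Cfsg.Agent.Nodes.ExactLift.Lft.pow_index hs hc hL (V := Z) (fun a ha h => by
    have h5 : a ∈ Z ⊓ π.ker := ⟨ha, h⟩
    rw [h2] at h5
    exact mem_bot.1 h5) ha
  refine ⟨_, ?_, h4⟩
  rw [h3, ← hS]
  exact S.not_dvd_index

/-- the commutators lie in `D` -/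
theorem E_le [Finite L] {D : Subgroup L} (hD : DF φ π D) (hc : π.ker ≤ center L)
    (hcom : ∀ a, π a ∈ V φ j4 → ∀ b, π b ∈ V φ j4 → a * b * a⁻¹ * b⁻¹ ∈ D) : E φ π eS ≤ D := by
  refine sup_le ?_ ?_
  · rw [commutator_le]
    intro x hx y hy
    have hx' : π x ∈ V2 φ := V2r_eS_le hx
    have hy' : π y ∈ P φ j4 := Pr_eS_le hy
    rw [← hD.map] at hx'
    obtain ⟨d, hd, e⟩ := hx'
    have hz : x * d⁻¹ ∈ center L := hc (by rw [MonoidHom.mem_ker, map_mul, map_inv, e, mul_inv_cancel])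
    have e2 : ⁅x, y⁆ = d * (y * d * y⁻¹)⁻¹ := by
      have e3 := mem_center_iff.1 hz
      have e4 : x = (x * d⁻¹) * d := by group
      generalize x * d⁻¹ = z at *
      subst e4
      rw [commutatorElement_def]
      calc z * d * y * (z * d)⁻¹ * y⁻¹ = z * (d * y * d⁻¹) * z⁻¹ * y⁻¹ := by group
        _ = (d * y * d⁻¹) * z * z⁻¹ * y⁻¹ := by rw [e3]
        _ = d * (y * d * y⁻¹)⁻¹ := by group
    rw [e2]
    exact mul_mem hd (inv_mem (hD.norm y hy' d hd))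
  · rw [commutator_le]
    intro x hx y hy
    rw [commutatorElement_def]
    exact hcom x (Vr_eS_le hx) y (Vr_eS_le hy)

end L

/-- **P4b.** -/
theorem pairs {F : Type u} [Field F] [Fintype F] (hF : Fintype.card F = 4) {φ : F →+* F} (hφ : ∀ t, φ t = t ^ 2)
    {L : Type v} [Group L] [Finite L] {π : L →* KK F} (hπ : PCE π) (hk : Nat.card π.ker = 4) {D : Subgroup L}
    (hD : DF φ π D) : BF φ π D := by
  classical
  have : CharP F 2 := Cfsg.Agent.H164.F4.OutV.charTwo hF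
  have hqq : ∀ t : F, (t ^ 2) ^ 2 = t := fun t => by
    rw [← pow_mul, show 2 * 2 = Fintype.card F by rw [hF]]
    exact FiniteField.pow_card t
  intro K₁ hK1 hK2
  by_contra hne
  push Not at hne
  apply hK2
  apply le_antisymm hK1
  intro z hz
  obtain ⟨L', _, q, ρ, hq, hqk, hρ, hρc⟩ := hπ.quot hK1
  have hfin : Finite L' := Finite.of_surjective q hq
  have hD' : DF φ ρ (D.map q) := by
    refine ⟨?_, ?_, ?_⟩
    · rintro _ ⟨d, hd, rfl⟩ h1
      rw [hρ] at h1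
      rw [hD.disj d hd h1, map_one]
    · rw [← hD.map, Subgroup.map_map]
      congr 1
      exact MonoidHom.ext fun x => hρ x
    · rintro g hg _ ⟨d, hd, rfl⟩
      obtain ⟨g, rfl⟩ := hq g
      rw [hρ] at hg
      exact ⟨g * d * g⁻¹, hD.norm g hg d hd, by simp only [map_mul, map_inv]⟩
  have hcom : ∀ a, ρ a ∈ V φ j4 → ∀ b, ρ b ∈ V φ j4 → a * b * a⁻¹ * b⁻¹ ∈ D.map q := by
    intro a ha b hb
    obtain ⟨a, rfl⟩ := hq a
    obtain ⟨b, rfl⟩ := hq b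
    rw [hρ] at ha hb
    have h1 := hne a ha b hb
    have h2 : q (a * b * a⁻¹ * b⁻¹) ∈ (K₁ ⊔ D).map q := mem_map_of_mem q h1
    rw [Subgroup.map_sup] at h2
    have h3 : K₁.map q = ⊥ := by
      rw [eq_bot_iff]
      rintro _ ⟨k, hk', rfl⟩
      rw [mem_bot, ← MonoidHom.mem_ker, hqk]
      exact hk'
    rw [h3, bot_sup_eq] at h2
    simpa only [map_mul, map_inv] using h2
  have h1 : E φ ρ eS ⊓ ρ.ker = ⊥ := by
    rw [eq_bot_iff]
    rintro x ⟨hx, hx1⟩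
    rw [mem_bot]
    exact hD'.disj x (E_le hD' hρc.cen hcom hx) hx1
  obtain ⟨n, hn, h2⟩ := core hφ hqq hF hρc.surj hρc.cen hρc.perf h1 (a := q z) (by rw [hρ]; exact hz)
  have h3 : z ^ 4 = 1 := by
    have h4 := pow_card_eq_one' (x := (⟨z, hz⟩ : π.ker))
    rw [hk] at h4
    exact congrArg Subtype.val h4
  have h5 : q z = 1 := by
    have h4 : (q z) ^ 4 = 1 := by rw [← map_pow, h3, map_one]
    have h6 : orderOf (q z) ∣ 1 := by
      have hcop : Nat.Coprime n 4 := by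
        have h7 : Nat.Coprime n 2 := ((Nat.Prime.coprime_iff_not_dvd Nat.prime_two).2 hn).symm
        exact Nat.Coprime.pow_right 2 h7
      rw [← hcop]
      exact Nat.dvd_gcd (orderOf_dvd_of_pow_eq_one h2) (orderOf_dvd_of_pow_eq_one h4)
    exact orderOf_eq_one_iff.1 (Nat.dvd_one.1 h6)
  rw [← hqk]
  exact h5

end Cfsg.Agent.H184.QF
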